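import Mathlib
import Cfsg.Agent.Lib.Helper77.NF3.Defs
import Cfsg.Agent.Lib.Helper5.Pres120

/-!
# Project NF3, package [IDX]
-/

set_option autoImplicit false

namespace Cfsg.Agent.Lib.Helper22.NF3

open Cfsg.Agent.Lib.Helper77.NF3

universe u

theorem card_SL25 : Nat.card SL25 = 120 := Cfsg.Agent.Lib.Helper5.Pres120.card_SL2_five

/-- an isomorphism preserves the order of the centre -/
theorem card_center_congr {N : Type u} [Group N] {X : Type*} [Group X] (e : N ≃* X) :
    Nat.card (Subgroup.center N) = Nat.card (Subgroup.center X) := by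
  refine Nat.card_congr (e.toEquiv.subtypeEquiv ?_)
  intro x
  show x ∈ Subgroup.center N ↔ e x ∈ Subgroup.center X
  rw [Subgroup.mem_center_iff, Subgroup.mem_center_iff]
  constructor
  · intro h y
    obtain ⟨t, rfl⟩ := e.surjective y
    rw [← map_mul, ← map_mul, h t]
  · intro h t
    have := h (e t)
    rw [← map_mul, ← map_mul] at this
    exact e.injective this

/-- the kernel of the conjugation action on a normal subgroup is its centralizer -/
theorem ker_conjNormal {H : Type u} [Group H] (N : Subgroup H) [N.Normal] :
    (MulAut.conjNormal : H →* MulAut N).ker = Subgroup.centralizer (N : Set H) := by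
  ext g
  rw [MonoidHom.mem_ker, Subgroup.mem_centralizer_iff]
  constructor
  · intro h s hs
    have h1 : MulAut.conjNormal g (⟨s, hs⟩ : N) = ⟨s, hs⟩ := by rw [h]; rfl
    have h2 := congrArg Subtype.val h1
    rw [MulAut.conjNormal_apply] at h2
    have h3 : g * s * g⁻¹ = s := h2
    calc s * g = (g * s * g⁻¹) * g := by rw [h3]
      _ = g * s := by group
  · intro h
    apply MulEquiv.ext
    intro s
    apply Subtype.ext
    rw [MulAut.conjNormal_apply]
    have := h s s.2
    show g * ↑s * g⁻¹ = ↑s
    calc g * ↑s * g⁻¹ = (↑s * g) * g⁻¹ := by rw [this]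
      _ = ↑s := by group

/-- the kernel of `MulAut.conj` is the centre -/
theorem ker_conj (N : Type u) [Group N] :
    (MulAut.conj : N →* MulAut N).ker = Subgroup.center N := by
  ext g
  rw [MonoidHom.mem_ker, Subgroup.mem_center_iff]
  constructor
  · intro h s
    have h1 : MulAut.conj g s = s := by rw [h]; rfl
    rw [MulAut.conj_apply] at h1
    calc s * g = (g * s * g⁻¹) * g := by rw [h1]
      _ = g * s := by group
  · intro h
    apply MulEquiv.ext
    intro s
    rw [MulAut.conj_apply]
    show g * s * g⁻¹ = s
    calc g * s * g⁻¹ = (s * g) * g⁻¹ := by rw [h s]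
      _ = s := by group

/-- `N ⊓ C_H(N)` has the order of the centre of `N` -/
theorem card_inf_centralizer {H : Type u} [Group H] (N : Subgroup H) :
    Nat.card ↥(N ⊓ Subgroup.centralizer (N : Set H)) = Nat.card (Subgroup.center N) := by
  have : N ⊓ Subgroup.centralizer (N : Set H) = (Subgroup.center N).map N.subtype := by
    ext x
    rw [Subgroup.mem_inf, Subgroup.mem_map, Subgroup.mem_centralizer_iff]
    constructor
    · rintro ⟨hx, hc⟩
      refine ⟨⟨x, hx⟩, ?_, rfl⟩
      rw [Subgroup.mem_center_iff]
      intro s
      apply Subtype.ext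
      exact hc s s.2
    · rintro ⟨y, hy, rfl⟩
      refine ⟨y.2, ?_⟩
      intro s hs
      rw [Subgroup.mem_center_iff] at hy
      exact congrArg Subtype.val (hy ⟨s, hs⟩)
  rw [this]
  exact Nat.card_congr
    ((Subgroup.center N).equivMapOfInjective N.subtype N.subtype_injective).symm.toEquiv

/-- [IDX] -/
theorem pkgIdx (hCen : Nat.card (Subgroup.center SL25) = 2) : PkgIdx.{u} := by
  intro H _ _ N hN ⟨e⟩ hAut
  haveI : Finite SL25 := Nat.finite_of_card_ne_zero (by rw [card_SL25]; norm_num)
  have hNcard : Nat.card N = 120 := by rw [Nat.card_congr e.toEquiv, card_SL25]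
  have hZ : Nat.card (Subgroup.center N) = 2 := by rw [card_center_congr e, hCen]
  refine ⟨?_, ?_⟩
  · let c : H →* MulAut N := MulAut.conjNormal
    have hker : c.ker = Subgroup.centralizer (N : Set H) := ker_conjNormal N
    have h1 : Nat.card c.ker * Nat.card c.range = Nat.card H := by
      rw [← Subgroup.index_ker]
      exact Subgroup.card_mul_index _
    -- the inner automorphisms
    have h2 : Nat.card (MulAut.conj : N →* MulAut N).range = 60 := by
      have h := Subgroup.card_mul_index (MulAut.conj : N →* MulAut N).ker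
      rw [Subgroup.index_ker, ker_conj, hZ, hNcard] at h
      omega
    have h3 : (MulAut.conj : N →* MulAut N).range ≤ c.range := by
      rintro _ ⟨n, rfl⟩
      exact ⟨(n : H), MulAut.conjNormal_val⟩
    have h4 : 60 ∣ Nat.card c.range := h2 ▸ Subgroup.card_dvd_of_le h3
    have h5 : Nat.card c.range ≤ 120 := by
      have ha : Nat.card (MulAut N) = Nat.card (MulAut SL25) :=
        Nat.card_congr (MulAut.congr e).toEquiv
      have hb : Nat.card c.range ≤ Nat.card (MulAut N) :=
        Nat.card_le_card_of_injective _ Subtype.val_injective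
      have hc : Nat.card (MulAut SL25) ≤ 120 := hAut
      omega
    have h6 : 0 < Nat.card c.range := Nat.card_pos
    refine ⟨Nat.card c.range, ?_, ?_⟩
    · obtain ⟨k, hk⟩ := h4
      have : k = 1 ∨ k = 2 := by omega
      rcases this with rfl | rfl <;> omega
    · rw [← hker, h1]
  · have h := Subgroup.card_dvd_of_le
      (inf_le_right : N ⊓ Subgroup.centralizer (N : Set H) ≤ Subgroup.centralizer (N : Set H))
    rw [card_inf_centralizer, hZ] at h
    exact h

end Cfsg.Agent.Lib.Helper22.NF3
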