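import Mathlib
import Cfsg.Agent.Lib.Helper77.NF3.Defs
import Cfsg.Agent.Lib.Helper22.NF3.Idx

/-!
# Project NF3, package [FIN]
-/

set_option autoImplicit false

namespace Cfsg.Agent.Lib.Helper22.NF3

open Cfsg.Agent.Lib.Helper77.NF3

universe u

/-- [FIN] -/
theorem pkgFin (hCen : Nat.card (Subgroup.center SL25) = 2) : PkgFin.{u} := by
  intro H _ _ N hN ⟨e⟩ hcyc m hm hC hH
  have hNcard : Nat.card N = 120 := by rw [Nat.card_congr e.toEquiv, card_SL25]
  have hZ : Nat.card ↥(N ⊓ Subgroup.centralizer (N : Set H)) = 2 := by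
    rw [card_inf_centralizer, card_center_congr e, hCen]
  obtain ⟨g, hg⟩ := hcyc.exists_generator
  have hord : orderOf g = 2 * m := by
    rw [orderOf_eq_card_of_forall_mem_zpowers hg, hC]
  have hordH : orderOf (g : H) = 2 * m := by
    rw [Subgroup.orderOf_coe]
    exact hord
  have hmpos : 0 < m := hm.pos
  let M : Subgroup H := Subgroup.zpowers ((g : H) ^ 2)
  have hM : Nat.card M = m := by
    rw [Nat.card_zpowers, orderOf_pow, hordH]
    have : Nat.gcd (2 * m) 2 = 2 := Nat.gcd_eq_right ⟨m, rfl⟩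
    rw [this]
    omega
  have hMC : M ≤ Subgroup.centralizer (N : Set H) := by
    rw [Subgroup.zpowers_le]
    exact Subgroup.pow_mem _ g.2 2
  have hdisj : ∀ x : H, x ∈ N → x ∈ M → x = 1 := by
    intro x hxN hxM
    have h2 : x ^ 2 = 1 := by
      have h := pow_card_eq_one' (G := ↥(N ⊓ Subgroup.centralizer (N : Set H)))
        (x := ⟨x, ⟨hxN, hMC hxM⟩⟩)
      rw [hZ] at h
      exact congrArg Subtype.val h
    have hmm : x ^ m = 1 := by
      have h := pow_card_eq_one' (G := ↥M) (x := ⟨x, hxM⟩)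
      rw [hM] at h
      exact congrArg Subtype.val h
    obtain ⟨k, hk⟩ := hm
    rw [hk, pow_succ, pow_mul, h2, one_pow, one_mul] at hmm
    exact hmm
  let f : ↥N × ↥M →* H := MonoidHom.noncommCoprod N.subtype M.subtype (by
    intro n x
    exact (Subgroup.mem_centralizer_iff.mp (hMC x.2) n n.2))
  have hf : ∀ n : ↥N, ∀ x : ↥M, f (n, x) = (n : H) * (x : H) := fun n x => rfl
  have hinj : Function.Injective f := by
    rw [injective_iff_map_eq_one]
    rintro ⟨n, x⟩ h
    rw [hf] at h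
    have hn : (n : H) = (x : H)⁻¹ := eq_inv_of_mul_eq_one_left h
    have hn1 : (n : H) = 1 := hdisj _ n.2 (hn ▸ M.inv_mem x.2)
    have hx1 : (x : H) = 1 := by
      rw [hn1, one_mul] at h
      exact h
    exact Prod.ext (Subtype.ext hn1) (Subtype.ext hx1)
  have hcard : Nat.card (↥N × ↥M) = Nat.card H := by
    rw [Nat.card_prod, hNcard, hM, hH]
  have hbij : Function.Bijective f := (Nat.bijective_iff_injective_and_card f).mpr ⟨hinj, hcard⟩
  haveI : NeZero m := ⟨hmpos.ne'⟩
  have hcm : Nat.card ↥M = Nat.card (Multiplicative (ZMod m)) := by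
    rw [hM, Nat.card_congr Multiplicative.toAdd, Nat.card_zmod]
  have eM : ↥M ≃* Multiplicative (ZMod m) := mulEquivOfCyclicCardEq hcm
  exact ⟨(MulEquiv.ofBijective f hbij).symm.trans (MulEquiv.prodCongr e eM)⟩

end Cfsg.Agent.Lib.Helper22.NF3
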